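import Cfsg.Agent.H339.MaxRow
import Cfsg.Agent.H305.SepJ3
import Cfsg.Agent.H305.SepJ2

/-!
# `SepInv 3` for `J₃`, `J₂` (helper305)

`J₃`: the normalizers of the Sylow subgroups for 3, 17, 19; `J₂`: of the Sylow subgroups for 5, 7 and `N(3A)`.
-/

set_option autoImplicit false
set_option linter.style.haveILetI false

namespace Cfsg.Agent.H305.SepInvJ

open Subgroup Cfsg.Agent.OrdDiv Cfsg.Agent.H940 Cfsg.Agent.H940.Eng Cfsg.Agent.H940.Eng.D

/-! ### tools -/

theorem map_normalizer {X Y : Type*} [Group X] [Group Y] (e : X ≃* Y) (A : Subgroup X) :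
    (normalizer (A : Set X)).map e.toMonoidHom = normalizer ((A.map e.toMonoidHom : Subgroup Y) : Set Y) := by
  have h2 : ∀ v : X, e v ∈ (A.map e.toMonoidHom : Subgroup Y) ↔ v ∈ A := by
    intro v
    constructor
    · rintro ⟨u, hu, huv⟩
      have : u = v := e.injective huv
      rwa [← this]
    · intro hv
      exact ⟨v, hv, rfl⟩
  ext y
  constructor
  · rintro ⟨x, hx, rfl⟩
    rw [mem_normalizer_iff]
    intro z
    obtain ⟨w, rfl⟩ := e.surjective z
    have h1 := mem_normalizer_iff.1 hx w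
    have h3 : e.toMonoidHom x * e w * (e.toMonoidHom x)⁻¹ = e (x * w * x⁻¹) := by
      simp
    rw [h3, h2, h2]
    exact h1
  · intro hy
    obtain ⟨x, rfl⟩ := e.surjective y
    refine ⟨x, ?_, rfl⟩
    show x ∈ normalizer (A : Set X)
    rw [mem_normalizer_iff] at hy ⊢
    intro w
    have h1 := hy (e w)
    have h3 : e x * e w * (e x)⁻¹ = e (x * w * x⁻¹) := by
      simp
    rw [h3, h2, h2] at h1
    exact h1

theorem autInv_normalizer {K : Type*} [Group K] {A : Subgroup K} (h : H339.MaxCl.AutInv A) :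
    H339.MaxCl.AutInv (normalizer (A : Set K)) := by
  intro α
  obtain ⟨g, hg⟩ := h α
  refine ⟨g, ?_⟩
  rw [map_normalizer, map_normalizer, ← hg]

theorem apart_of {K : Type*} [Group K] {A B : Subgroup K} (h : H940.MaxCls.Apart A B) : H339.MaxCl.Apart A B := by
  intro H h1 g h2
  exact h g H h1 fun x hx => h2 ⟨x, hx, rfl⟩

theorem sepInv_three {K : Type*} [Group K] {A B C : Subgroup K} (hA : A ≠ ⊤ ∧ A ≠ ⊥ ∧ H339.MaxCl.AutInv A)
    (hB : B ≠ ⊤ ∧ B ≠ ⊥ ∧ H339.MaxCl.AutInv B) (hC : C ≠ ⊤ ∧ C ≠ ⊥ ∧ H339.MaxCl.AutInv C)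
    (hAB : H940.MaxCls.Apart A B) (hAC : H940.MaxCls.Apart A C)
    (hBC : H940.MaxCls.Apart B C) : H339.MaxCl.SepInv 3 K := by
  refine ⟨![A, B, C], ?_, ?_⟩
  · intro i
    fin_cases i
    · exact hA
    · exact hB
    · exact hC
  · intro i j hij
    fin_cases i <;> fin_cases j
    · exact absurd rfl hij
    · exact apart_of hAB
    · exact apart_of hAC
    · exact (apart_of hAB).symm
    · exact absurd rfl hij
    · exact apart_of hBC
    · exact (apart_of hAC).symm
    · exact (apart_of hBC).symm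
    · exact absurd rfl hij

theorem ne_bot_of_dvd {X : Type*} [Group X] {A : Subgroup X} {k : ℕ} (h : k ∣ Nat.card A) (hk : k ≠ 1) : A ≠ ⊥ := by
  rintro rfl
  rw [card_bot] at h
  exact hk (Nat.dvd_one.1 h)

/-- a subgroup of prime order `r ∥ |G|` -/
theorem autInv_of_card {G : Type*} [Group G] [Finite G] {n r : ℕ} (hn : Nat.card G = n) (hr : isPrimeB r = true)
    (h2 : (n % (r ^ 2) != 0) = true) {R : Subgroup G} (hR : Nat.card R = r) :
    H339.MaxCl.AutInv (normalizer (R : Set G)) := by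
  haveI := Fact.mk (prime_of hr)
  have h2' : ¬ r ^ 2 ∣ Nat.card G := by
    rw [hn]
    intro h
    rw [Nat.dvd_iff_mod_eq_zero] at h
    rw [h] at h2
    exact absurd h2 (by decide)
  obtain ⟨S, hS⟩ := H904.SylOne.exists_sylow hR h2'
  rw [← hS]
  exact autInv_normalizer (H339.MaxCl.autInv_sylow S)

/-! ### `J₃` -/

theorem j3 (B : Base) {G : Type} [Group G] (h : Cfsg.Spor.IsoJ3 G) : H339.MaxCl.SepInv 3 G := by
  have c := SepJ3.ctx B h
  haveI := c.fin
  haveI := c.simple
  have hc := SepJ3.card h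
  haveI := Fact.mk Nat.prime_three
  obtain ⟨P⟩ := (inferInstance : Nonempty (Sylow 3 G))
  obtain ⟨R17, h17⟩ := exists_card_eq (G := G) (r := 17) (by decide +kernel) (by rw [hc]; decide +kernel)
  obtain ⟨R19, h19⟩ := exists_card_eq (G := G) (r := 19) (by decide +kernel) (by rw [hc]; decide +kernel)
  have c17 := (SepJ3.cn17 h h17).2
  have c19 := (SepJ3.cn19 h h19).2
  have hP : Nat.card (P : Subgroup G) = 243 := by
    have h1 := P.card_eq_multiplicity
    rw [hc, show n_j3 = 3 ^ 5 * 206720 by decide, Nat.factorization_mul (by norm_num) (by norm_num),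
      Finsupp.add_apply, Nat.Prime.factorization_pow Nat.prime_three,
      Nat.factorization_eq_zero_of_not_dvd (n := 206720) (by norm_num)] at h1
    simpa using h1
  have c3 : 243 ∣ Nat.card (normalizer ((P : Subgroup G) : Set G)) := by
    rw [← hP]
    exact card_dvd_of_le le_normalizer
  have ne : ∀ {A : Subgroup G} {k : ℕ}, Nat.card A = k → (k != n_j3) = true → A ≠ ⊤ := by
    intro A k h1 h2 h3
    rw [h3, card_top, hc] at h1
    rw [bne_iff_ne] at h2
    exact h2 h1.symm
  have ne3 : normalizer ((P : Subgroup G) : Set G) ≠ ⊤ := by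
    intro h
    have hn : (P : Subgroup G).Normal := normalizer_eq_top_iff.1 h
    rcases hn.eq_bot_or_eq_top with h1 | h1
    · have : Nat.card (P : Subgroup G) = 1 := by rw [h1, card_bot]
      exact absurd (hP.symm.trans this) (by norm_num)
    · have : Nat.card (P : Subgroup G) = n_j3 := by rw [h1, card_top, hc]
      exact absurd (hP.symm.trans this) (by decide)
  have f3 : ∀ p ∈ [3], Full p (normalizer ((P : Subgroup G) : Set G)) := by
    intro p hp; rw [List.mem_singleton.1 hp]
    exact full_normalizer Nat.prime_three P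
  have f17 : ∀ p ∈ [17], Full p (normalizer (R17 : Set G)) := by
    intro p hp; rw [List.mem_singleton.1 hp]
    exact full_of_card hc (by decide +kernel) (by decide +kernel) h17
  have f19 : ∀ p ∈ [19], Full p (normalizer (R19 : Set G)) := by
    intro p hp; rw [List.mem_singleton.1 hp]
    exact full_of_card hc (by decide +kernel) (by decide +kernel) h19
  exact sepInv_three
    ⟨ne c17 (by decide +kernel), ne_bot_of_dvd c17.symm.dvd (by norm_num), autInv_of_card hc (by decide +kernel) (by decide +kernel) h17⟩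
    ⟨ne c19 (by decide +kernel), ne_bot_of_dvd c19.symm.dvd (by norm_num), autInv_of_card hc (by decide +kernel) (by decide +kernel) h19⟩
    ⟨ne3, ne_bot_of_dvd c3 (by norm_num), autInv_normalizer (H339.MaxCl.autInv_sylow P)⟩
    (c.apart c17.symm.dvd c19.symm.dvd [(2, 4), (3, 3), (5, 1)] _ _ 60 f17 f19 (by decide +kernel))
    (c.apart c17.symm.dvd c3 [(2, 4), (5, 1), (19, 1)] _ _ 60 f17 f3 (by decide +kernel))
    (c.apart c19.symm.dvd c3 [(2, 7), (5, 1), (17, 1)] _ _ 60 f19 f3 (by decide +kernel))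

/-! ### `J₂` -/

theorem card_centralizer_equiv {G H : Type*} [Group G] [Group H] (e : G ≃* H) (x : G) :
    Nat.card (centralizer ({e x} : Set H)) = Nat.card (centralizer ({x} : Set G)) := by
  refine Nat.card_congr ⟨fun y => ⟨e.symm y, ?_⟩, fun y => ⟨e y, ?_⟩, fun y => ?_, fun y => ?_⟩
  · rw [mem_centralizer_singleton_iff]
    apply e.injective
    rw [map_mul, map_mul, e.apply_symm_apply]
    exact mem_centralizer_singleton_iff.1 y.2
  · rw [mem_centralizer_singleton_iff, ← map_mul, mem_centralizer_singleton_iff.1 y.2, map_mul]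
  · exact Subtype.ext (e.apply_symm_apply _)
  · exact Subtype.ext (e.symm_apply_apply _)

theorem j2_model (B : Base) : H339.MaxCl.SepInv 3 Cfsg.Spor.J2 := by
  have c := SepJ2.ctx B
  haveI := c.fin
  haveI := c.simple
  have hc := SepJ2.card
  haveI := Fact.mk Nat.prime_five
  obtain ⟨t, u, F⟩ := SepJ2.exists_fus
  obtain ⟨P⟩ := (inferInstance : Nonempty (Sylow 5 SepJ2.G))
  obtain ⟨hCP, hP25, hP300, -⟩ := Cfsg.Agent.J2Type.FiveFus.sylow_five F P
  obtain ⟨R7, h7⟩ := exists_card_eq (G := SepJ2.G) (r := 7) (by decide +kernel) (by rw [hc]; decide +kernel)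
  obtain ⟨x, hx, hxc, hMt, hM, f3⟩ := SepJ2.exists_three'
  have c7 := (SepJ2.cn7 h7).2
  have f5 : ∀ p ∈ [5], Full p (normalizer ((P : Subgroup SepJ2.G) : Set SepJ2.G)) := by
    intro p hp; rw [List.mem_singleton.1 hp]
    exact full_normalizer Nat.prime_five P
  have f7 : ∀ p ∈ [7], Full p (normalizer (R7 : Set SepJ2.G)) := by
    intro p hp; rw [List.mem_singleton.1 hp]
    exact full_of_card hc (by decide +kernel) (by decide +kernel) h7
  have hinv : H339.MaxCl.AutInv (zpowers x : Subgroup SepJ2.G) := by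
    intro α
    have h1 : orderOf (α x) = 3 := (orderOf_injective α.toMonoidHom α.injective x).trans hx
    obtain ⟨g, hg⟩ := isConj_iff.1 (hxc (α x) h1 (card_centralizer_equiv α x))
    refine ⟨g, ?_⟩
    rw [MonoidHom.map_zpowers, MonoidHom.map_zpowers]
    congr 1
  exact sepInv_three
    ⟨SepJ2.ne_top hP300 (by decide +kernel), ne_bot_of_dvd hP300.symm.dvd (by norm_num),
      autInv_normalizer (H339.MaxCl.autInv_sylow P)⟩
    ⟨SepJ2.ne_top c7 (by decide +kernel), ne_bot_of_dvd c7.symm.dvd (by norm_num),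
      autInv_of_card hc (by decide +kernel) (by decide +kernel) h7⟩
    ⟨hMt, ne_bot_of_dvd hM (by norm_num), autInv_normalizer hinv⟩
    (c.apart hP300.symm.dvd c7.symm.dvd [(2, 5), (3, 2)] _ _ 60 f5 f7 (by decide +kernel))
    (c.apart hP300.symm.dvd hM [(2, 4), (7, 1)] _ _ 60 f5 f3 (by decide +kernel))
    (c.apart c7.symm.dvd hM [(2, 4), (5, 1)] _ _ 60 f7 f3 (by decide +kernel))

theorem j2 (B : Base) {G : Type*} [Group G] (h : Cfsg.Spor.IsoJ2 G) : H339.MaxCl.SepInv 3 G := by
  obtain ⟨e⟩ := h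
  exact H339.MaxCl.SepInv.congr e.symm (j2_model B)

end Cfsg.Agent.H305.SepInvJ
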